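import Cfsg.Agent.OddOrderLocal.HallPi

/-!
# An odd order transitive subgroup of a solvable transitive group
-/

set_option autoImplicit false

namespace Cfsg.Agent.H448.SuzOdd

/-- A solvable group transitive on a set of odd size has a transitive subgroup of odd order. -/
theorem exists_odd {P Ω : Type*} [Group P] [Finite P] [MulAction P Ω] {Y : Subgroup P}
    (hY : Group.IsSolvable Y) (S : Set Ω) (hS : Odd S.ncard) (hinv : ∀ g ∈ Y, ∀ x ∈ S, g • x ∈ S)
    (htr : ∀ x ∈ S, ∀ y ∈ S, ∃ g ∈ Y, g • x = y) :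
    ∃ H : Subgroup P, H ≤ Y ∧ Odd (Nat.card H) ∧ ∀ x ∈ S, ∀ y ∈ S, ∃ g ∈ H, g • x = y := by
  obtain ⟨H, hHY, hH1, hH2⟩ := Cfsg.Agent.OddOrderLocal.HallPi.exists_isPiHallOf hY {p : ℕ | p ≠ 2}
  have hodd : Odd (Nat.card H) := by
    rw [← Nat.not_even_iff_odd, even_iff_two_dvd]
    intro h
    exact hH1 2 Nat.prime_two h rfl
  have hSf : S.Finite := by
    by_contra h
    rw [Set.Infinite.ncard h] at hS
    exact absurd hS (by decide)
  refine ⟨H, hHY, hodd, ?_⟩
  have key : ∀ x ∈ S, ∀ y ∈ S, ∃ g ∈ H, g • x = y := by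
    intro x hx
    set T : Subgroup P := MulAction.stabilizer P x with hT
    have horb : ∀ L : Subgroup P, T.relIndex L = (MulAction.orbit L x).ncard := by
      intro L
      rw [← MulAction.index_stabilizer L x]
      rfl
    have h1 : T.relIndex Y = S.ncard := by
      rw [horb]
      congr 1
      ext y
      constructor
      · rintro ⟨⟨g, hg⟩, rfl⟩
        exact hinv g hg x hx
      · intro hy
        obtain ⟨g, hg, hgy⟩ := htr x hx y hy
        exact ⟨⟨g, hg⟩, hgy⟩
    have h2 : S.ncard ∣ T.relIndex H * H.relIndex Y := by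
      rw [← h1]
      have h3 : (H ⊓ T).relIndex H * H.relIndex Y = (H ⊓ T).relIndex Y :=
        Subgroup.relIndex_mul_relIndex _ _ _ inf_le_left hHY
      have h4 : (H ⊓ T).relIndex (Y ⊓ T) * (Y ⊓ T).relIndex Y = (H ⊓ T).relIndex Y :=
        Subgroup.relIndex_mul_relIndex _ _ _ (inf_le_inf_right T hHY) inf_le_left
      rw [Subgroup.inf_relIndex_left] at h3
      rw [Subgroup.inf_relIndex_left Y T] at h4
      rw [h3, ← h4]
      exact Dvd.intro_left _ rfl
    have h5 : Nat.Coprime S.ncard (H.relIndex Y) := by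
      rw [Nat.coprime_iff_gcd_eq_one]
      by_contra hne
      obtain ⟨p, hp, hpd⟩ := Nat.exists_prime_and_dvd hne
      have h6 := hpd.trans (Nat.gcd_dvd_left _ _)
      have h7 := hpd.trans (Nat.gcd_dvd_right _ _)
      by_cases hp2 : p = 2
      · subst hp2
        exact (Nat.not_even_iff_odd.mpr hS) (even_iff_two_dvd.mpr h6)
      · exact hH2 p hp hp2 h7
    have h6 : S.ncard ∣ T.relIndex H := h5.dvd_of_dvd_mul_right h2
    rw [horb] at h6
    have hsub : MulAction.orbit H x ⊆ S := by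
      rintro y ⟨⟨g, hg⟩, rfl⟩
      exact hinv g (hHY hg) x hx
    have h7 : 0 < (MulAction.orbit H x).ncard := by
      rw [Set.ncard_pos (hSf.subset hsub)]
      exact ⟨x, MulAction.mem_orbit_self x⟩
    have h8 := Set.eq_of_subset_of_ncard_le hsub (Nat.le_of_dvd h7 h6) hSf
    intro y hy
    rw [← h8] at hy
    obtain ⟨⟨g, hg⟩, hgy⟩ := hy
    exact ⟨g, hg, hgy⟩
  exact key

end Cfsg.Agent.H448.SuzOdd
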