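import Cfsg.Agent.H448.SuzField

/-!
# The commutator pairing with a homocyclic subgroup of exponent four

`D.e : F → G` identifies the elements of square `1` of the group `G`, all central, with the additive
group of the finite field `F`.
-/

set_option autoImplicit false

namespace Cfsg.Agent.H448.Suz

open Cfsg.Agent.H448.SuzField Cfsg.Agent.LieRecognition.FieldAutBasis
open scoped commutatorElement

/-- Identification of the elements of square `1` with a field. -/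
structure SData (G : Type*) [Group G] (F : Type*) [Field F] where
  e : F → G
  add : ∀ a b, e (a + b) = e a * e b
  inj : Function.Injective e
  sq : ∀ x : G, x * x = 1 ↔ ∃ a, e a = x
  cen : ∀ a (g : G), e a * g = g * e a

variable {G : Type*} [Group G] {F : Type*} [Field F]

namespace SData

variable (D : SData G F)

/-- The inverse of `e`. -/
noncomputable def lg (x : G) : F := Function.invFun D.e x

theorem lg_e (a : F) : D.lg (D.e a) = a := Function.leftInverse_invFun D.inj a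

theorem e_lg {x : G} (hx : x * x = 1) : D.e (D.lg x) = x := by
  obtain ⟨a, rfl⟩ := (D.sq x).mp hx
  rw [lg_e]

theorem e_zero : D.e 0 = 1 := by
  have h := D.add 0 0
  rw [add_zero] at h
  exact (mul_eq_left (a := D.e 0)).mp h.symm

theorem sq_e (a : F) : D.e a * D.e a = 1 := (D.sq _).mpr ⟨a, rfl⟩

include D

theorem comm_of_sq {x : G} (hx : x * x = 1) (g : G) : x * g = g * x := by
  obtain ⟨a, rfl⟩ := (D.sq x).mp hx
  exact D.cen a g

theorem sq_mul {x y : G} (hx : x * x = 1) (hy : y * y = 1) : (x * y) * (x * y) = 1 := by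
  obtain ⟨a, rfl⟩ := (D.sq x).mp hx
  obtain ⟨b, rfl⟩ := (D.sq y).mp hy
  rw [← D.add]
  exact D.sq_e _

theorem lg_mul {x y : G} (hx : x * x = 1) (hy : y * y = 1) : D.lg (x * y) = D.lg x + D.lg y := by
  obtain ⟨a, rfl⟩ := (D.sq x).mp hx
  obtain ⟨b, rfl⟩ := (D.sq y).mp hy
  rw [← D.add, lg_e, lg_e, lg_e]

theorem lg_one : D.lg 1 = 0 := by
  rw [← D.e_zero, lg_e]

theorem eq_one_of_lg {x : G} (hx : x * x = 1) (h : D.lg x = 0) : x = 1 := by
  rw [← D.e_lg hx, h, D.e_zero]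

theorem eq_of_lg {x y : G} (hx : x * x = 1) (hy : y * y = 1) (h : D.lg x = D.lg y) : x = y := by
  rw [← D.e_lg hx, h, D.e_lg hy]

end SData

/-- A subgroup `M`, an abelian subgroup `Y` of exponent four all of whose commutators with `M` have
square `1`, and the centralizer `X` of `Y` in `M`, abelian and containing the squares of `M`. -/
structure Pair (D : SData G F) (M Y X : Subgroup G) : Prop where
  YM : Y ≤ M
  XM : X ≤ M
  Yc : ∀ x ∈ Y, ∀ y ∈ Y, x * y = y * x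
  Xc : ∀ x ∈ X, ∀ y ∈ X, x * y = y * x
  root : ∀ a : F, ∃ y ∈ Y, y * y = D.e a
  Y4 : ∀ y ∈ Y, (y * y) * (y * y) = 1
  com : ∀ b ∈ M, ∀ y ∈ Y, ⁅b, y⁆ * ⁅b, y⁆ = 1
  cent : ∀ b ∈ M, (∀ y ∈ Y, b * y = y * b) → b ∈ X
  XY : ∀ x ∈ X, ∀ y ∈ Y, x * y = y * x
  sqX : ∀ b ∈ M, b * b ∈ X

namespace Pair

variable {D : SData G F} {M Y X : Subgroup G} (P : Pair D M Y X)

include P

/-- The chosen square root of `e a` in `Y`. -/
noncomputable def rt (a : F) : G := (P.root a).choose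

theorem rt_mem (a : F) : P.rt a ∈ Y := (P.root a).choose_spec.1

theorem rt_sq (a : F) : P.rt a * P.rt a = D.e a := (P.root a).choose_spec.2

/-- The pairing. -/
noncomputable def bet (b : G) (a : F) : F := D.lg ⁅b, P.rt a⁆

theorem com_eq {b y y' : G} (hy : y ∈ Y) (hy' : y' ∈ Y) (h : y * y = y' * y') :
    ⁅b, y⁆ = ⁅b, y'⁆ := by
  have hc := P.Yc y hy y' hy'
  have h1 : (y * y'⁻¹) * (y * y'⁻¹) = 1 := by
    have h2 : y'⁻¹ * y = y * y'⁻¹ := by
      rw [inv_mul_eq_iff_eq_mul, ← mul_assoc, ← hc, mul_assoc, mul_inv_cancel, mul_one]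
    calc (y * y'⁻¹) * (y * y'⁻¹) = y * (y'⁻¹ * y) * y'⁻¹ := by group
      _ = (y * y) * (y'⁻¹ * y'⁻¹) := by rw [h2]; group
      _ = 1 := by rw [h]; group
  have h3 := D.comm_of_sq h1
  have h4 : y = (y * y'⁻¹) * y' := by group
  set ε := y * y'⁻¹ with hε
  rw [h4, commutatorElement_def, commutatorElement_def]
  have h5 := h3 b
  calc b * (ε * y') * b⁻¹ * (ε * y')⁻¹ = (b * ε) * y' * b⁻¹ * y'⁻¹ * ε⁻¹ := by group
    _ = (ε * b) * y' * b⁻¹ * y'⁻¹ * ε⁻¹ := by rw [h5]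
    _ = ε * (b * y' * b⁻¹ * y'⁻¹) * ε⁻¹ := by group
    _ = b * y' * b⁻¹ * y'⁻¹ := by rw [h3]; group

theorem e_bet {b y : G} (hb : b ∈ M) (hy : y ∈ Y) : D.e (P.bet b (D.lg (y * y))) = ⁅b, y⁆ := by
  rw [bet, D.e_lg (P.com b hb _ (P.rt_mem _))]
  apply P.com_eq (P.rt_mem _) hy
  rw [P.rt_sq, D.e_lg (P.Y4 y hy)]

theorem bet_lg {b y : G} (hb : b ∈ M) (hy : y ∈ Y) : P.bet b (D.lg (y * y)) = D.lg ⁅b, y⁆ := by
  rw [← P.e_bet hb hy, D.lg_e]

theorem com_mul_right {b y y' : G} (hb : b ∈ M) (hy : y ∈ Y) (hy' : y' ∈ Y) :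
    ⁅b, y * y'⁆ = ⁅b, y⁆ * ⁅b, y'⁆ := by
  have h1 := D.comm_of_sq (P.com b hb y' hy')
  calc ⁅b, y * y'⁆ = ⁅b, y⁆ * (y * ⁅b, y'⁆) * y⁻¹ := by
        rw [commutatorElement_def, commutatorElement_def, commutatorElement_def]; group
    _ = ⁅b, y⁆ * ⁅b, y'⁆ := by rw [← h1]; group

theorem com_mul_left {b b' y : G} (hb' : b' ∈ M) (hy : y ∈ Y) :
    ⁅b * b', y⁆ = ⁅b, y⁆ * ⁅b', y⁆ := by
  have h1 := D.comm_of_sq (P.com b' hb' y hy)
  calc ⁅b * b', y⁆ = (b * ⁅b', y⁆) * b⁻¹ * ⁅b, y⁆ := by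
        rw [commutatorElement_def, commutatorElement_def, commutatorElement_def]; group
    _ = ⁅b', y⁆ * ⁅b, y⁆ := by rw [← h1]; group
    _ = ⁅b, y⁆ * ⁅b', y⁆ := h1 _

theorem bet_add {b : G} (hb : b ∈ M) (a a' : F) : P.bet b (a + a') = P.bet b a + P.bet b a' := by
  have hy := Y.mul_mem (P.rt_mem a) (P.rt_mem a')
  have h1 : (P.rt a * P.rt a') * (P.rt a * P.rt a') = D.e (a + a') := by
    have hc := P.Yc _ (P.rt_mem a) _ (P.rt_mem a')
    calc (P.rt a * P.rt a') * (P.rt a * P.rt a') = P.rt a * (P.rt a' * P.rt a) * P.rt a' := by group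
      _ = (P.rt a * P.rt a) * (P.rt a' * P.rt a') := by rw [← hc]; group
      _ = D.e (a + a') := by rw [P.rt_sq, P.rt_sq, D.add]
  have h2 := P.bet_lg hb hy
  rw [h1, D.lg_e, P.com_mul_right hb (P.rt_mem a) (P.rt_mem a'),
    D.lg_mul (P.com b hb _ (P.rt_mem a)) (P.com b hb _ (P.rt_mem a'))] at h2
  exact h2

theorem bet_mul {b b' : G} (hb : b ∈ M) (hb' : b' ∈ M) (a : F) :
    P.bet (b * b') a = P.bet b a + P.bet b' a := by
  rw [bet, P.com_mul_left hb' (P.rt_mem a),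
    D.lg_mul (P.com b hb _ (P.rt_mem a)) (P.com b' hb' _ (P.rt_mem a))]
  rfl

theorem bet_one (a : F) : P.bet 1 a = 0 := by
  rw [bet, commutatorElement_one_left, D.lg_one]

theorem bet_inv {b : G} (hb : b ∈ M) (a : F) : P.bet b⁻¹ a = - P.bet b a := by
  have h := P.bet_mul hb (M.inv_mem hb) a
  rw [mul_inv_cancel, P.bet_one] at h
  exact (neg_eq_of_add_eq_zero_right h.symm).symm

theorem mem_X_of_bet {b : G} (hb : b ∈ M) (h : ∀ a, P.bet b a = 0) : b ∈ X := by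
  apply P.cent b hb
  intro y hy
  have h1 := P.e_bet hb hy
  rw [h, D.e_zero] at h1
  have h2 : b * y * b⁻¹ * y⁻¹ = 1 := h1.symm
  rw [mul_inv_eq_one, mul_inv_eq_iff_eq_mul] at h2
  exact h2

theorem bet_of_mem_X {b : G} (hb : b ∈ X) (a : F) : P.bet b a = 0 := by
  rw [bet, commutatorElement_eq_one_iff_mul_comm.mpr (P.XY b hb _ (P.rt_mem a)), D.lg_one]

/-- `b` as an additive map. -/
noncomputable def betHom {b : G} (hb : b ∈ M) : F →+ F := AddMonoidHom.mk' (P.bet b) (P.bet_add hb)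

/-- The group of the additive maps `bet b`. -/
noncomputable def V : AddSubgroup (F →+ F) where
  carrier := {v | ∃ b ∈ M, ∀ a, v a = P.bet b a}
  zero_mem' := ⟨1, M.one_mem, fun a => by rw [P.bet_one]; rfl⟩
  add_mem' := by
    rintro v w ⟨b, hb, hv⟩ ⟨b', hb', hw⟩
    exact ⟨b * b', M.mul_mem hb hb', fun a => by
      rw [P.bet_mul hb hb', AddMonoidHom.add_apply, hv, hw]⟩
  neg_mem' := by
    rintro v ⟨b, hb, hv⟩
    exact ⟨b⁻¹, M.inv_mem hb, fun a => by rw [P.bet_inv hb, AddMonoidHom.neg_apply, hv]⟩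

theorem mem_V {v : F →+ F} : v ∈ P.V ↔ ∃ b ∈ M, ∀ a, v a = P.bet b a := Iff.rfl

/-- Equivariance. -/
theorem bet_equiv {h : MulAut G} {T : F → F} (hT : ∀ a, h (D.e a) = D.e (T a))
    (hY : ∀ y ∈ Y, h y ∈ Y) (hM : ∀ y ∈ M, h y ∈ M) {b : G} (hb : b ∈ M) (a : F) :
    P.bet (h b) (T a) = T (P.bet b a) := by
  have h1 : (h (P.rt a)) * (h (P.rt a)) = D.e (T a) := by rw [← map_mul, P.rt_sq, hT]
  have h2 := P.bet_lg (hM b hb) (hY _ (P.rt_mem a))
  rw [h1, D.lg_e] at h2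
  rw [h2]
  have h3 : ⁅h b, h (P.rt a)⁆ = h ⁅b, P.rt a⁆ := by
    rw [commutatorElement_def, commutatorElement_def]; simp only [map_mul, map_inv]
  rw [h3, ← D.e_lg (P.com b hb _ (P.rt_mem a)), hT, D.lg_e]
  rfl

end Pair

end Cfsg.Agent.H448.Suz
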