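import Cfsg.Agent.H448.SuzUnif
import Cfsg.Agent.Lib.FrattiniPGroup

/-!
# Suzuki 2-groups: the reduction to exponent four
-/

set_option autoImplicit false

namespace Cfsg.Agent.H448.Suz

open Cfsg.Agent.H448.SuzField Cfsg.Agent.LieRecognition.FieldAutBasis
open scoped commutatorElement

variable {G : Type*} [Group G] {F : Type*} [Field F]

/-- The subgroup generated by the squares of the elements of `M`. -/
def Phi (M : Subgroup G) : Subgroup G := Subgroup.closure {g | ∃ x ∈ M, x * x = g}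

theorem sq_mem_Phi {M : Subgroup G} {x : G} (hx : x ∈ M) : x * x ∈ Phi M :=
  Subgroup.subset_closure ⟨x, hx, rfl⟩

theorem Phi_le {M K : Subgroup G} (h : ∀ x ∈ M, x * x ∈ K) : Phi M ≤ K := by
  rw [Phi, Subgroup.closure_le]
  rintro g ⟨y, hy, rfl⟩
  exact h y hy

theorem Phi_le_self (M : Subgroup G) : Phi M ≤ M := Phi_le fun x hx => M.mul_mem hx hx

theorem com_mem_Phi {M : Subgroup G} {x y : G} (hx : x ∈ M) (hy : y ∈ M) : ⁅x, y⁆ ∈ Phi M := by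
  have h1 : ⁅x, y⁆ = ((x * y) * (x * y)) * ((y⁻¹ * x⁻¹ * y) * (y⁻¹ * x⁻¹ * y)) * (y⁻¹ * y⁻¹) := by
    rw [commutatorElement_def]; group
  rw [h1]
  exact (Phi M).mul_mem ((Phi M).mul_mem (sq_mem_Phi (M.mul_mem hx hy))
    (sq_mem_Phi (M.mul_mem (M.mul_mem (M.inv_mem hy) (M.inv_mem hx)) hy)))
    (sq_mem_Phi (M.inv_mem hy))

theorem Phi_ne [Finite G] (hG : IsPGroup 2 G) {M : Subgroup G} (hM : M ≠ ⊥) : Phi M ≠ M := by
  have : Fact (Nat.Prime 2) := ⟨Nat.prime_two⟩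
  intro h
  have hnt : Nontrivial M := (Subgroup.nontrivial_iff_ne_bot M).mpr hM
  obtain ⟨K, hK, -⟩ := (eq_top_or_exists_le_coatom (⊥ : Subgroup M)).resolve_left bot_ne_top
  have h1 : Phi M ≤ K.map M.subtype := by
    apply Phi_le
    intro x hx
    have h2 := Cfsg.Agent.Lib.FrattiniPGroup.pow_mem_frattini (hG.to_subgroup M) (⟨x, hx⟩ : M)
    have h3 : (⟨x, hx⟩ : M) ^ 2 ∈ K := frattini_le_coatom hK h2
    refine ⟨_, h3, ?_⟩
    rw [pow_two]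
    rfl
  rw [h] at h1
  apply hK.1
  rw [eq_top_iff]
  rintro ⟨x, hx⟩ -
  obtain ⟨y, hy, hyx⟩ := h1 hx
  have : y = ⟨x, hx⟩ := Subtype.ext hyx
  rw [← this]
  exact hy

section Main

variable {D : SData G F} {H : Subgroup (MulAut G)} {h0 : MulAut G} {l : F}
  (A : HData D H h0 l)

omit A in
theorem Phi_inv {M : Subgroup G} (hM : Inv H M) : Inv H (Phi M) := by
  intro h hh m hm
  have h1 : Phi M ≤ (Phi M).comap h.toMonoidHom := by
    apply Phi_le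
    intro x hx
    change h (x * x) ∈ Phi M
    rw [map_mul]
    exact sq_mem_Phi (hM h hh x hx)
  exact h1 hm

include A

/-- A set of involutions stable under `H`. -/
theorem all_of_one {S : Set G} (hS : ∀ h ∈ H, ∀ s ∈ S, h s ∈ S) {a0 : F} (ha0 : a0 ≠ 0)
    (h : D.e a0 ∈ S) {a : F} (ha : a ≠ 0) : D.e a ∈ S := by
  obtain ⟨h1, hh, he⟩ := A.tr a0 a ha0 ha
  rw [← he]
  exact hS h1 hh _ h

theorem e_mem {N : Subgroup G} (hN : Inv H N) (hne : N ≠ ⊥) (a : F) : D.e a ∈ N := by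
  by_cases ha : a = 0
  · rw [ha, D.e_zero]; exact N.one_mem
  obtain ⟨z, hz, hz1⟩ : ∃ z ∈ N, z ≠ 1 := by
    by_contra hcon
    push Not at hcon
    exact hne ((Subgroup.eq_bot_iff_forall N).mpr hcon)
  obtain ⟨k, hk1, hk2⟩ := exists_pow_involution A.two hz1
  obtain ⟨a0, ha0⟩ := (D.sq _).mp hk2
  have ha00 : a0 ≠ 0 := by
    rintro rfl
    rw [D.e_zero] at ha0
    exact hk1 ha0.symm
  refine all_of_one A (S := (N : Set G)) hN ha00 ?_ ha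
  rw [ha0]
  exact N.pow_mem hz _

theorem sq_mem {N : Subgroup G} (hN : Inv H N) (hne : N ≠ ⊥) {z : G} (hz : z * z = 1) : z ∈ N := by
  obtain ⟨a, rfl⟩ := (D.sq z).mp hz
  exact e_mem A hN hne a

/-- The power map is onto the involutions. -/
theorem exists_pow {X : Subgroup G} (hX : Inv H X) {m : ℕ} {z0 : G} (hz0 : z0 ∈ X)
    (hm : z0 ^ 2 ^ m ≠ 1) (a : F) : ∃ z ∈ X, z ^ 2 ^ m = D.e a := by
  by_cases ha : a = 0
  · exact ⟨1, X.one_mem, by rw [one_pow, ha, D.e_zero]⟩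
  obtain ⟨k, hk1, hk2⟩ := exists_pow_involution A.two hm
  obtain ⟨a0, ha0⟩ := (D.sq _).mp hk2
  have ha00 : a0 ≠ 0 := by
    rintro rfl
    rw [D.e_zero] at ha0
    exact hk1 ha0.symm
  refine all_of_one A (S := {g | ∃ z ∈ X, z ^ 2 ^ m = g}) ?_ ha00 ?_ ha
  · rintro h hh g ⟨z, hz, rfl⟩
    exact ⟨h z, hX h hh z hz, by rw [map_pow]⟩
  · refine ⟨z0 ^ 2 ^ k, X.pow_mem hz0 _, ?_⟩
    rw [ha0, ← pow_mul, ← pow_mul, mul_comm]

/-- Invariant abelian subgroups are homocyclic. -/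
theorem exists_root {X : Subgroup G} (hX : Inv H X) (hc : ∀ x ∈ X, ∀ y ∈ X, x * y = y * x) {m : ℕ}
    {z0 : G} (hz0 : z0 ∈ X) (hm : z0 ^ 2 ^ m ≠ 1) :
    ∀ i ≤ m, ∀ y ∈ X, y ^ 2 ^ i = 1 → ∃ x ∈ X, x * x = y := by
  intro i
  induction i with
  | zero =>
    intro _ y _ h
    rw [pow_zero, pow_one] at h
    exact ⟨1, X.one_mem, by rw [h, mul_one]⟩
  | succ i ih =>
    intro hi y hy h
    have h1 : y ^ 2 ^ i * y ^ 2 ^ i = 1 := by
      rw [← pow_add, ← two_mul, ← pow_succ']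
      exact h
    obtain ⟨a, ha⟩ := (D.sq _).mp h1
    obtain ⟨z, hz, hza⟩ := exists_pow A hX hz0 hm a
    set u := z ^ 2 ^ (m - i - 1) with hu
    have huX : u ∈ X := X.pow_mem hz _
    have hw : (u * u) ^ 2 ^ i = D.e a := by
      rw [← hza, hu, ← pow_two, ← pow_mul, ← pow_mul, ← pow_succ', ← pow_add]
      congr 2
      omega
    have h2 : (y * (u * u)⁻¹) ^ 2 ^ i = 1 := by
      have hcm : Commute y (u * u)⁻¹ := hc y hy _ (X.inv_mem (X.mul_mem huX huX))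
      rw [hcm.mul_pow, inv_pow, hw, ← ha, mul_inv_cancel]
    obtain ⟨x, hx, hxx⟩ := ih (by omega) _ (X.mul_mem hy (X.inv_mem (X.mul_mem huX huX))) h2
    refine ⟨x * u, X.mul_mem hx huX, ?_⟩
    have h3 := hc x hx u huX
    calc x * u * (x * u) = x * (u * x) * u := by group
      _ = (x * x) * (u * u) := by rw [← h3]; group
      _ = y := by rw [hxx]; group

/-- In an invariant subgroup of exponent four with a central element of order four, everything commutes. -/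
theorem central_sq {N : Subgroup G} (hN : Inv H N) (hS : ∀ x ∈ N, (x * x) * (x * x) = 1)
    (hna : ¬ ∀ x ∈ N, ∀ y ∈ N, x * y = y * x) {z : G} (hz : z ∈ N) (hzc : ∀ x ∈ N, z * x = x * z) :
    z * z = 1 := by
  by_contra hne
  apply hna
  obtain ⟨a0, ha0⟩ := (D.sq _).mp (hS z hz)
  have ha00 : a0 ≠ 0 := by
    rintro rfl
    rw [D.e_zero] at ha0
    exact hne ha0.symm
  have key : ∀ a : F, ∃ w ∈ N, (∀ x ∈ N, w * x = x * w) ∧ w * w = D.e a := by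
    intro a
    by_cases ha : a = 0
    · exact ⟨1, N.one_mem, fun x _ => by rw [one_mul, mul_one], by rw [ha, D.e_zero, mul_one]⟩
    refine all_of_one A (S := {g | ∃ w ∈ N, (∀ x ∈ N, w * x = x * w) ∧ w * w = g}) ?_ ha00 ?_ ha
    · rintro h hh g ⟨w, hw, hwc, rfl⟩
      refine ⟨h w, hN h hh w hw, ?_, by rw [map_mul]⟩
      intro x hx
      have h1 := hwc (h⁻¹ x) (hN _ (H.inv_mem hh) x hx)
      have h2 := congrArg h h1
      rw [map_mul, map_mul, MulAut.apply_inv_self] at h2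
      exact h2
    · exact ⟨z, hz, hzc, ha0.symm⟩
  intro x hx y hy
  obtain ⟨a, ha⟩ := (D.sq _).mp (hS x hx)
  obtain ⟨w, hw, hwc, hww⟩ := key a
  have h1 : (x * w⁻¹) * (x * w⁻¹) = 1 := by
    have h2 : w⁻¹ * x = x * w⁻¹ := by
      rw [inv_mul_eq_iff_eq_mul, ← mul_assoc, hwc x hx, mul_assoc, mul_inv_cancel, mul_one]
    calc (x * w⁻¹) * (x * w⁻¹) = x * (w⁻¹ * x) * w⁻¹ := by group
      _ = (x * x) * (w * w)⁻¹ := by rw [h2]; group
      _ = 1 := by rw [hww, ha, mul_inv_cancel]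
  have h3 := D.comm_of_sq h1 y
  have h4 : x = (x * w⁻¹) * w := by group
  have h5 := hwc y hy
  calc x * y = (x * w⁻¹) * (w * y) := by group
    _ = ((x * w⁻¹) * y) * w := by rw [h5]; group
    _ = y * x := by rw [h3]; group

omit A in
/-- Descending along the lower central series. -/
theorem exists_low (D : SData G F) [Finite G] (hG : IsPGroup 2 G) {M N : Subgroup G}
    (hNM : ∀ w ∈ N, ∀ g ∈ M, ⁅w, g⁆ ∈ N) (hN : ∃ w ∈ N, w * w ≠ 1) :
    ∃ w ∈ N, w * w ≠ 1 ∧ ∀ g ∈ M, ⁅w, g⁆ * ⁅w, g⁆ = 1 := by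
  have : Fact (Nat.Prime 2) := ⟨Nat.prime_two⟩
  have hnil : Group.IsNilpotent G := hG.isNilpotent
  obtain ⟨n, hn⟩ := Subgroup.nilpotent_iff_lowerCentralSeries.mp hnil
  by_contra hcon
  push Not at hcon
  have key : ∀ i : ℕ, ∃ w ∈ N, w * w ≠ 1 ∧ w ∈ Subgroup.lowerCentralSeries (⊤ : Subgroup G) i := by
    intro i
    induction i with
    | zero =>
      obtain ⟨w, hw, hw1⟩ := hN
      exact ⟨w, hw, hw1, by rw [Subgroup.lowerCentralSeries_zero]; trivial⟩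
    | succ i ih =>
      obtain ⟨w, hw, hw1, hwi⟩ := ih
      obtain ⟨g, hg, hg1⟩ := hcon w hw hw1
      refine ⟨⁅w, g⁆, hNM w hw g hg, hg1, ?_⟩
      rw [Subgroup.lowerCentralSeries_succ]
      exact Subgroup.commutator_mem_commutator hwi (Subgroup.mem_top g)
  obtain ⟨w, -, hw1, hw2⟩ := key n
  rw [hn] at hw2
  apply hw1
  rw [Subgroup.mem_bot.mp hw2, mul_one]

/-- The vanishing of an equivariant pairing. -/
theorem alt_pair [Finite F] [CharP F 2] {A1 B1 : Subgroup G} (hA1 : ∀ x ∈ A1, h0 x ∈ A1)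
    (hB1 : ∀ x ∈ B1, h0 x ∈ B1) (S1 S2 : G → F) (κ : G → G → F)
    (S1mul : ∀ x ∈ A1, ∀ y ∈ A1, S1 (x * y) = S1 x + S1 y)
    (S2mul : ∀ x ∈ B1, ∀ y ∈ B1, S2 (x * y) = S2 x + S2 y)
    (S1surj : ∀ a, ∃ x ∈ A1, S1 x = a) (S2surj : ∀ a, ∃ x ∈ B1, S2 x = a)
    (S1h : ∀ x ∈ A1, S1 (h0 x) = l * S1 x) (S2h : ∀ x ∈ B1, S2 (h0 x) = l * S2 x)
    (κl : ∀ x ∈ A1, ∀ x' ∈ A1, ∀ y ∈ B1, κ (x * x') y = κ x y + κ x' y)
    (κr : ∀ x ∈ A1, ∀ y ∈ B1, ∀ y' ∈ B1, κ x (y * y') = κ x y + κ x y')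
    (κh : ∀ x ∈ A1, ∀ y ∈ B1, κ (h0 x) (h0 y) = l * κ x y)
    (κ1 : ∀ x ∈ A1, ∀ y ∈ B1, S1 x = 0 → κ x y = 0)
    (κ2 : ∀ x ∈ A1, ∀ y ∈ B1, S2 y = 0 → κ x y = 0)
    (κd : ∀ x ∈ A1, ∀ y ∈ B1, S1 x = S2 y → κ x y = 0) :
    ∀ x ∈ A1, ∀ y ∈ B1, κ x y = 0 := by
  have S1inv : ∀ x ∈ A1, S1 x⁻¹ = - S1 x := by
    intro x hx
    have h1 := S1mul 1 A1.one_mem 1 A1.one_mem
    rw [mul_one] at h1
    have h2 := S1mul x hx x⁻¹ (A1.inv_mem hx)
    rw [mul_inv_cancel, left_eq_add.mp h1] at h2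
    exact (neg_eq_of_add_eq_zero_right h2.symm).symm
  have S2inv : ∀ x ∈ B1, S2 x⁻¹ = - S2 x := by
    intro x hx
    have h1 := S2mul 1 B1.one_mem 1 B1.one_mem
    rw [mul_one] at h1
    have h2 := S2mul x hx x⁻¹ (B1.inv_mem hx)
    rw [mul_inv_cancel, left_eq_add.mp h1] at h2
    exact (neg_eq_of_add_eq_zero_right h2.symm).symm
  have wd1 : ∀ x ∈ A1, ∀ x' ∈ A1, ∀ y ∈ B1, S1 x = S1 x' → κ x y = κ x' y := by
    intro x hx x' hx' y hy h
    have h1 : S1 (x * x'⁻¹) = 0 := by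
      rw [S1mul x hx _ (A1.inv_mem hx'), S1inv x' hx', h, add_neg_cancel]
    have h2 := κ1 _ (A1.mul_mem hx (A1.inv_mem hx')) y hy h1
    have h3 := κl _ (A1.mul_mem hx (A1.inv_mem hx')) x' hx' y hy
    rw [inv_mul_cancel_right, h2, zero_add] at h3
    exact h3
  have wd2 : ∀ x ∈ A1, ∀ y ∈ B1, ∀ y' ∈ B1, S2 y = S2 y' → κ x y = κ x y' := by
    intro x hx y hy y' hy' h
    have h1 : S2 (y * y'⁻¹) = 0 := by
      rw [S2mul y hy _ (B1.inv_mem hy'), S2inv y' hy', h, add_neg_cancel]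
    have h2 := κ2 x hx _ (B1.mul_mem hy (B1.inv_mem hy')) h1
    have h3 := κr x hx _ (B1.mul_mem hy (B1.inv_mem hy')) y' hy'
    rw [inv_mul_cancel_right, h2, zero_add] at h3
    exact h3
  choose s1 hs1 hs1' using S1surj
  choose s2 hs2 hs2' using S2surj
  let B : F →+ F →+ F := AddMonoidHom.mk' (fun a => AddMonoidHom.mk' (fun b => κ (s1 a) (s2 b)) (by
      intro b b'
      rw [← κr _ (hs1 a) _ (hs2 b) _ (hs2 b')]
      apply wd2 _ (hs1 a) _ (hs2 _) _ (B1.mul_mem (hs2 b) (hs2 b'))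
      rw [hs2', S2mul _ (hs2 b) _ (hs2 b'), hs2', hs2'])) (by
      intro a a'
      ext b
      change κ (s1 (a + a')) (s2 b) = κ (s1 a) (s2 b) + κ (s1 a') (s2 b)
      rw [← κl _ (hs1 a) _ (hs1 a') _ (hs2 b)]
      apply wd1 _ (hs1 _) _ (A1.mul_mem (hs1 a) (hs1 a')) _ (hs2 b)
      rw [hs1', S1mul _ (hs1 a) _ (hs1 a'), hs1', hs1'])
  have hB : ∀ a b, B a b = κ (s1 a) (s2 b) := fun a b => rfl
  intro x hx y hy
  have h1 : κ x y = B (S1 x) (S2 y) := by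
    rw [hB, wd1 x hx _ (hs1 (S1 x)) y hy (hs1' _).symm,
      wd2 _ (hs1 (S1 x)) y hy _ (hs2 (S2 y)) (hs2' _).symm]
  rw [h1]
  apply alt_zero A.nt B
  · intro a b
    rw [hB, hB, ← κh _ (hs1 a) _ (hs2 b)]
    rw [wd1 _ (hs1 (l * a)) _ (hA1 _ (hs1 a)) _ (hs2 _) (by rw [hs1', S1h _ (hs1 a), hs1'])]
    rw [wd2 _ (hA1 _ (hs1 a)) _ (hs2 (l * b)) _ (hB1 _ (hs2 b)) (by rw [hs2', S2h _ (hs2 b), hs2'])]
  · intro a
    rw [hB]
    apply κd _ (hs1 a) _ (hs2 a)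
    rw [hs1', hs2']

end Main

end Cfsg.Agent.H448.Suz
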